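import Cfsg.Agent.H959.JordanModel
import Cfsg.Agent.ClassicalGeometry.Discriminant
import Cfsg.Agent.ClassicalGeometry.SiegelGen
import Cfsg.Prelude.Def_GeometricClasses
import Cfsg.Agent.LieClassical.QuadForms
set_option linter.all false

-- part: H959/JordanEx
section
/-!
# Unipotent elements of orthogonal groups of given Jordan type

`exists_unipotent`: for a nondegenerate quadratic form `Q` on `F ^ ι`, `F` finite of odd characteristic `p`, and a
multiset `μ` of sum `|ι|`, with parts at most `p`, even parts of even multiplicity and at least one odd part, there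
is an element `x` of `Ω(Q)` with `x ^ p = 1` of Jordan type `μ`.
-/

set_option autoImplicit false

namespace Cfsg.Agent.H959

open Module QuadraticMap

universe u

section Isometry

variable {F : Type u} [Field F] [Finite F]

/-- Nondegenerate symmetric forms of equal dimension with equal discriminants are isometric. -/
theorem exists_isometry (h2 : (2 : F) ≠ 0) {V₁ V₂ : Type*} [AddCommGroup V₁] [Module F V₁] [FiniteDimensional F V₁]
    [AddCommGroup V₂] [Module F V₂] [FiniteDimensional F V₂]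
    (B₁ : LinearMap.BilinForm F V₁) (B₂ : LinearMap.BilinForm F V₂)
    (hs₁ : ∀ x y, B₁ x y = B₁ y x) (hs₂ : ∀ x y, B₂ x y = B₂ y x)
    (hn₁ : ∀ x, (∀ y, B₁ x y = 0) → x = 0) (hn₂ : ∀ x, (∀ y, B₂ x y = 0) → x = 0)
    {κ₁ κ₂ : Type*} [Fintype κ₁] [DecidableEq κ₁] [Fintype κ₂] [DecidableEq κ₂]
    (b₁ : Basis κ₁ F V₁) (b₂ : Basis κ₂ F V₂) (hcard : finrank F V₁ = finrank F V₂)
    (hsq : IsSquare ((LinearMap.BilinForm.toMatrix b₁ B₁).det * (LinearMap.BilinForm.toMatrix b₂ B₂).det)) :
    ∃ φ : V₁ ≃ₗ[F] V₂, ∀ x y, B₂ (φ x) (φ y) = B₁ x y := by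
  have hS₁ : B₁.IsSymm := ⟨hs₁⟩
  have hS₂ : B₂.IsSymm := ⟨hs₂⟩
  have hN₁ : B₁.Nondegenerate := ⟨hn₁, fun y hy => hn₁ y fun x => by rw [hs₁]; exact hy x⟩
  have hN₂ : B₂.Nondegenerate := ⟨hn₂, fun y hy => hn₂ y fun x => by rw [hs₂]; exact hy x⟩
  have hd₁ := (LinearMap.BilinForm.nondegenerate_iff_det_ne_zero b₁).1 hN₁
  have hd₂ := (LinearMap.BilinForm.nondegenerate_iff_det_ne_zero b₂).1 hN₂
  rcases Nat.eq_zero_or_pos (finrank F V₁) with h0 | hpos
  · have : Subsingleton V₁ := Module.finrank_zero_iff.mp h0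
    have : Subsingleton V₂ := Module.finrank_zero_iff.mp (hcard ▸ h0)
    exact ⟨0, fun x y => by rw [Subsingleton.elim x 0]; simp⟩
  · obtain ⟨n, hn⟩ : ∃ n, finrank F V₁ = n + 1 := ⟨finrank F V₁ - 1, by omega⟩
    set d := (LinearMap.BilinForm.toMatrix b₁ B₁).det with hd
    set c : Fin (n + 1) → F := Fin.cons d (fun _ => 1) with hc
    have hc0 : ∀ i, c i ≠ 0 := by
      intro i
      refine Fin.cases ?_ (fun k => ?_) i
      · simpa [hc] using hd₁
      · simp [hc]
    have hprod : ∏ i, c i = d := by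
      rw [Fin.prod_univ_succ]
      simp [hc]
    obtain ⟨v₁, hv₁⟩ := ClassicalGeometry.Discriminant.exists_basis_diag h2 B₁ hS₁ hN₁ b₁ c
      (by rw [Fintype.card_fin, hn]) hc0 1 (by rw [hprod]; ring)
    obtain ⟨t, ht⟩ := hsq
    obtain ⟨v₂, hv₂⟩ := ClassicalGeometry.Discriminant.exists_basis_diag h2 B₂ hS₂ hN₂ b₂ c
      (by rw [Fintype.card_fin, ← hcard, hn]) hc0 (t / d) (by
        rw [hprod]
        field_simp
        linear_combination ht)
    refine ⟨v₁.equiv v₂ (Equiv.refl _), fun x y => ?_⟩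
    have : B₂.compl₁₂ (v₁.equiv v₂ (Equiv.refl _)).toLinearMap (v₁.equiv v₂ (Equiv.refl _)).toLinearMap = B₁ := by
      refine v₁.ext fun i => v₁.ext fun j => ?_
      rw [LinearMap.compl₁₂_apply]
      simp only [LinearEquiv.coe_coe, Basis.equiv_apply, Equiv.refl_apply]
      rw [hv₁, hv₂]
    rw [← this]
    rfl

/-- Scaling an odd-dimensional summand, one gets every nondegenerate form. -/
theorem exists_scaled_isometry (h2 : (2 : F) ≠ 0) {V₁ V₂ V : Type*} [AddCommGroup V₁] [Module F V₁]
    [FiniteDimensional F V₁] [AddCommGroup V₂] [Module F V₂] [FiniteDimensional F V₂]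
    [AddCommGroup V] [Module F V] [FiniteDimensional F V]
    (B₁ : LinearMap.BilinForm F V₁) (B₂ : LinearMap.BilinForm F V₂) (B : LinearMap.BilinForm F V)
    (hs₁ : ∀ x y, B₁ x y = B₁ y x) (hs₂ : ∀ x y, B₂ x y = B₂ y x) (hs : ∀ x y, B x y = B y x)
    (hn₁ : ∀ x, (∀ y, B₁ x y = 0) → x = 0) (hn₂ : ∀ x, (∀ y, B₂ x y = 0) → x = 0)
    (hn : ∀ x, (∀ y, B x y = 0) → x = 0)
    (hodd : Odd (finrank F V₁)) (hcard : finrank F V₁ + finrank F V₂ = finrank F V) :
    ∃ c : F, c ≠ 0 ∧ ∃ φ : (V₁ × V₂) ≃ₗ[F] V, ∀ x y, B (φ x) (φ y) = sumForm (c • B₁) B₂ x y := by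
  classical
  let b₁ := finBasis F V₁
  let b₂ := finBasis F V₂
  let b := finBasis F V
  have hN₁ : B₁.Nondegenerate := ⟨hn₁, fun y hy => hn₁ y fun x => by rw [hs₁]; exact hy x⟩
  have hN₂ : B₂.Nondegenerate := ⟨hn₂, fun y hy => hn₂ y fun x => by rw [hs₂]; exact hy x⟩
  have hN : B.Nondegenerate := ⟨hn, fun y hy => hn y fun x => by rw [hs]; exact hy x⟩
  have hd₁ := (LinearMap.BilinForm.nondegenerate_iff_det_ne_zero b₁).1 hN₁
  have hd₂ := (LinearMap.BilinForm.nondegenerate_iff_det_ne_zero b₂).1 hN₂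
  have hd := (LinearMap.BilinForm.nondegenerate_iff_det_ne_zero b).1 hN
  set d₁ := (LinearMap.BilinForm.toMatrix b₁ B₁).det with hd₁'
  set d₂ := (LinearMap.BilinForm.toMatrix b₂ B₂).det with hd₂'
  set d := (LinearMap.BilinForm.toMatrix b B).det with hd'
  set c : F := d₁ * d₂ * d with hc
  have hc0 : c ≠ 0 := mul_ne_zero (mul_ne_zero hd₁ hd₂) hd
  have hdet : (LinearMap.BilinForm.toMatrix (b₁.prod b₂) (sumForm (c • B₁) B₂)).det =
      c ^ (finrank F V₁) * d₁ * d₂ := by
    have : LinearMap.BilinForm.toMatrix (b₁.prod b₂) (sumForm (c • B₁) B₂) =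
        Matrix.fromBlocks (c • LinearMap.BilinForm.toMatrix b₁ B₁) 0 0 (LinearMap.BilinForm.toMatrix b₂ B₂) := by
      ext i j
      rw [LinearMap.BilinForm.toMatrix_apply, sumForm_apply]
      rcases i with i | i <;> rcases j with j | j <;> simp [LinearMap.BilinForm.toMatrix_apply]
    rw [this, Matrix.det_fromBlocks_zero₁₂, Matrix.det_smul, Fintype.card_fin]
  obtain ⟨k, hk⟩ := hodd
  obtain ⟨φ, hφ⟩ := exists_isometry h2 (sumForm (c • B₁) B₂) B
    (fun x y => by
      rw [sumForm_apply, sumForm_apply, hs₂]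
      simp only [LinearMap.smul_apply]
      rw [hs₁])
    hs
    (by
      intro x hx
      apply Prod.ext
      · apply hn₁
        intro y
        have := hx (y, 0)
        rw [sumForm_apply] at this
        simp only [LinearMap.smul_apply, map_zero, add_zero, smul_eq_mul] at this
        exact (mul_eq_zero.mp this).resolve_left hc0
      · apply hn₂
        intro y
        have := hx (0, y)
        rw [sumForm_apply] at this
        simpa using this)
    hn (b₁.prod b₂) b (by rw [Module.finrank_prod, hcard]) (by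
      rw [hdet, hk]
      exact ⟨c ^ k * c, by rw [← hd', hc]; ring⟩)
  exact ⟨c, hc0, φ, hφ⟩

end Isometry

section Cayley

variable {F : Type u} [Field F] {V : Type*} [AddCommGroup V] [Module F V]

theorem hasType_conj {V' : Type*} [AddCommGroup V'] [Module F V'] (φ : V ≃ₗ[F] V') {N : Module.End F V}
    {μ : Multiset ℕ} (h : HasType N μ) : HasType (φ.conj N) μ := by
  intro j
  rw [← h j]
  have h1 : (φ.conj N) ^ j = φ.conj (N ^ j) := by
    induction j with
    | zero => ext x; simp
    | succ j ih => rw [pow_succ, ih, pow_succ]; ext x; simp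
  rw [h1]
  have h3 : LinearMap.range (φ.conj (N ^ j)) = (LinearMap.range (N ^ j)).map (φ : V →ₗ[F] V') := by
    ext y
    constructor
    · rintro ⟨x, rfl⟩
      exact ⟨_, ⟨φ.symm x, rfl⟩, rfl⟩
    · rintro ⟨_, ⟨x, rfl⟩, rfl⟩
      exact ⟨φ x, by simp⟩
  rw [h3]
  exact LinearEquiv.finrank_map_eq φ _

/-- The Cayley transform of a nilpotent skew-adjoint endomorphism. -/
theorem cayley [FiniteDimensional F V] (h2 : (2 : F) ≠ 0) (p : ℕ) [hp : Fact p.Prime] [CharP F p] (hodd : Odd p)
    (B : LinearMap.BilinForm F V) (N : Module.End F V) (hN : ∀ x y, B (N x) y = - B x (N y)) (hNp : N ^ p = 0) :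
    ∃ T : (Module.End F V)ˣ, T ^ p = 1 ∧ (∀ x y, B ((T : Module.End F V) x) ((T : Module.End F V) y) = B x y) ∧
      (∀ W : Submodule F V, W.map (T : Module.End F V) ≤ W → W.map N ≤ W) ∧
      ((T : Module.End F V) = 1 → N = 0) := by
  have hnil : IsNilpotent N := ⟨p, hNp⟩
  obtain ⟨u₁, hu₁⟩ := hnil.isUnit_one_add
  obtain ⟨u₂, hu₂⟩ := hnil.isUnit_one_sub
  have hcomm : Commute u₁ u₂ := by
    apply Units.ext
    rw [Units.val_mul, Units.val_mul, hu₁, hu₂]
    noncomm_ring
  have hp0 : (p : Module.End F V) = 0 := by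
    rw [← map_natCast (algebraMap F (Module.End F V)) p, CharP.cast_eq_zero, map_zero]
  have hpow : ∀ M : Module.End F V, M ^ p = 0 → (1 + M) ^ p = 1 := by
    intro M hM
    obtain ⟨r, hr⟩ := (Commute.one_left M).exists_add_pow_prime_eq hp.out
    rw [hr, hM, hp0]
    simp
  have hu₁p : u₁ ^ p = 1 := by
    apply Units.ext
    rw [Units.val_pow_eq_pow_val, hu₁, hpow N hNp]
    rfl
  have hu₂p : u₂ ^ p = 1 := by
    apply Units.ext
    rw [Units.val_pow_eq_pow_val, hu₂, sub_eq_add_neg, hpow (-N) (by rw [hodd.neg_pow, hNp, neg_zero])]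
    rfl
  -- `T (1 - N) = 1 + N`
  set T := u₁ * u₂⁻¹ with hT
  have hTN : (T : Module.End F V) * (1 - N) = 1 + N := by
    rw [← hu₂, ← hu₁, ← Units.val_mul, hT, inv_mul_cancel_right]
  have hTN' : ∀ x, (T : Module.End F V) (x - N x) = x + N x := by
    intro x
    have := congrArg (fun f : Module.End F V => f x) hTN
    simpa using this
  have hNT : (1 - N) * (T : Module.End F V) = 1 + N := by
    rw [← hu₂, ← hu₁, ← Units.val_mul, hT, ← mul_assoc, ← hcomm.eq, mul_assoc, mul_inv_cancel, mul_one]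
  have hNT' : ∀ x, (T : Module.End F V) x - N ((T : Module.End F V) x) = x + N x := by
    intro x
    have := congrArg (fun f : Module.End F V => f x) hNT
    simpa using this
  have hsurj : ∀ x : V, ∃ y, y - N y = x := by
    intro x
    refine ⟨((u₂⁻¹ : (Module.End F V)ˣ) : Module.End F V) x, ?_⟩
    have h1 : (u₂ : Module.End F V) * ((u₂⁻¹ : (Module.End F V)ˣ) : Module.End F V) = 1 := by
      rw [← Units.val_mul, mul_inv_cancel]; rfl
    have h3 := congrArg (fun f : Module.End F V => f x) h1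
    rw [hu₂] at h3
    simpa using h3
  refine ⟨T, ?_, ?_, ?_, ?_⟩
  · rw [hT, (hcomm.inv_right).mul_pow, inv_pow, hu₁p, hu₂p]; simp
  · intro x y
    obtain ⟨x', rfl⟩ := hsurj x
    obtain ⟨y', rfl⟩ := hsurj y
    rw [hTN', hTN']
    simp only [map_add, map_sub, LinearMap.add_apply, LinearMap.sub_apply]
    rw [hN x' y']; ring
  · intro W hW
    rintro _ ⟨w, hw, rfl⟩
    -- `T + 1` is injective on `W`
    have hmaps : W.map ((T : Module.End F V) + 1) ≤ W := by
      rintro _ ⟨v, hv, rfl⟩
      exact W.add_mem (hW ⟨v, hv, rfl⟩) hv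
    have hinj : Function.Injective (((T : Module.End F V) + 1 : Module.End F V) : V → V) := by
      rw [injective_iff_map_eq_zero]
      intro v hv
      have h1 : (T : Module.End F V) v = -v := eq_neg_of_add_eq_zero_left (by simpa using hv)
      have h3 := hNT' v
      rw [h1, map_neg, sub_neg_eq_add] at h3
      have h4 : (2 : F) • v = 0 := by
        rw [two_smul]
        have : -v + N v = v + N v := h3
        have h5 : -v = v := add_right_cancel this
        rw [← sub_neg_eq_add, h5, sub_self]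
      exact (smul_eq_zero.mp h4).resolve_left h2
    have heq : W.map ((T : Module.End F V) + 1) = W := by
      apply Submodule.eq_of_le_of_finrank_eq hmaps
      exact (Submodule.equivMapOfInjective _ hinj W).finrank_eq.symm
    have hw' := hw
    rw [SetLike.mem_coe, ← heq] at hw'
    obtain ⟨v, hv, hvw⟩ := hw'
    have h1 : (T : Module.End F V) v + v = w := by simpa using hvw
    -- `(1 - N) w = 2 v`
    have h3 : w - N w = (2 : F) • v := by
      rw [← h1, map_add, two_smul]
      have := hNT' v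
      calc (T : Module.End F V) v + v - (N ((T : Module.End F V) v) + N v)
          = ((T : Module.End F V) v - N ((T : Module.End F V) v)) + v - N v := by abel
        _ = v + v := by rw [this]; abel
    have h4 : N w = w - (2 : F) • v := by rw [← h3]; abel
    rw [h4]
    exact W.sub_mem hw (W.smul_mem _ hv)
  · intro h1
    ext x
    have h3 := hTN' x
    rw [h1] at h3
    have h4 : x - N x = x + N x := by simpa using h3
    have h5 : (2 : F) • N x = 0 := by
      rw [two_smul]
      have : -(N x) = N x := by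
        rw [sub_eq_add_neg] at h4
        exact add_left_cancel h4
      rw [← sub_neg_eq_add, this, sub_self]
    simpa using (smul_eq_zero.mp h5).resolve_left h2

end Cayley

section Unipotent

open scoped MatrixGroups

variable {ι : Type} [Fintype ι] [DecidableEq ι] {F : Type u} [Field F] [Finite F]

omit [Finite F] in
theorem toLin'_symm (T : (Module.End F (ι → F))ˣ) :
    Matrix.toLin' (((Matrix.GeneralLinearGroup.toLin (n := ι) (R := F)).symm T : GL ι F) : Matrix ι ι F) =
      (T : Module.End F (ι → F)) := by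
  have h := Matrix.GeneralLinearGroup.coe_toLin ((Matrix.GeneralLinearGroup.toLin (n := ι) (R := F)).symm T)
  rw [MulEquiv.apply_symm_apply] at h
  rw [Matrix.toLin'_apply']
  exact h.symm

omit [Finite F] in
/-- Elements of odd order of the isometry group lie in `Ω`. -/
theorem mem_omegaGL_of_pow (h2 : (2 : F) ≠ 0) (Q : QuadraticForm F (ι → F)) (hQ : (polarBilin Q).Nondegenerate)
    (x : GL ι F) (hx : ∀ v, Q ((x : Matrix ι ι F).mulVec v) = Q v) (n : ℕ) (hn : Odd n) (hxn : x ^ n = 1) :
    x ∈ Cfsg.Geo.omegaGL (⇑Q) := by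
  let g : Cfsg.isometryGroup F (⇑Q) := ⟨x, fun u _ => hx u⟩
  have hgn : g ^ n = 1 := Subtype.ext hxn
  obtain ⟨k, rfl⟩ := hn
  have hg : g = g ^ (k + 1) * g ^ (k + 1) := by
    rw [← pow_add, show k + 1 + (k + 1) = (2 * k + 1) + 1 by ring, pow_succ, hgn, one_mul]
  have hmem : g ∈ commutator (Cfsg.isometryGroup F (⇑Q)) := by
    rw [hg]
    exact ClassicalGeometry.SiegelGen.mul_self_mem_commutator h2 Q hQ _
  exact ⟨g, hmem, rfl⟩

/-- **Unipotent elements of `Ω(Q)` of given Jordan type.** -/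
theorem exists_unipotent (h2 : (2 : F) ≠ 0) (p : ℕ) [hp : Fact p.Prime] [CharP F p] (hodd : Odd p)
    (Q : QuadraticForm F (ι → F)) (hQ : (polarBilin Q).Nondegenerate) (μ : Multiset ℕ)
    (hle : ∀ e ∈ μ, 0 < e ∧ e ≤ p) (heven : ∀ e : ℕ, Even e → Even (μ.count e)) (hoddpart : ∃ e ∈ μ, Odd e)
    (hsum : μ.sum = Fintype.card ι) :
    ∃ (x : GL ι F) (N : Module.End F (ι → F)), x ∈ Cfsg.Geo.omegaGL (⇑Q) ∧ x ^ p = 1 ∧ (x = 1 → N = 0) ∧
      HasType N μ ∧ (∀ u v, polarBilin Q (N u) v = - polarBilin Q u (N v)) ∧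
      ∀ W : Submodule F (ι → F), W.map (Matrix.toLin' (x : Matrix ι ι F)) ≤ W → W.map N ≤ W := by
  obtain ⟨e, he, heo⟩ := hoddpart
  obtain ⟨n, rfl⟩ : ∃ n, e = n + 1 := ⟨e - 1, by have := (hle e he).1; omega⟩
  have hn : Even n := by
    rcases Nat.even_or_odd n with h | h
    · exact h
    · exact absurd h.add_one (Nat.not_even_iff_odd.mpr heo)
  obtain ⟨μ', rfl⟩ := Multiset.le_iff_exists_add.mp (Multiset.singleton_le.mpr he)
  have h₁ := isModel_odd (F := F) n hn
  obtain ⟨V, i1, i2, i3, B₂, N₂, h₂⟩ := exists_model (F := F) μ'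
    (fun e he => (hle e (Multiset.mem_add.mpr (Or.inr he))).1)
    (fun e he => by
      have h1 := heven e he
      rw [Multiset.count_add, Multiset.count_singleton, if_neg] at h1
      · simpa using h1
      · rintro rfl
        exact Nat.not_even_iff_odd.mpr heo he)
  have hV : finrank F V = μ'.sum := by
    have := h₂.type 0
    rw [pow_zero, Module.End.one_eq_id, LinearMap.range_id, finrank_top] at this
    rw [this]
    simp
  have hs : ∀ x y, polarBilin Q x y = polarBilin Q y x := fun x y => by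
    simp only [polarBilin_apply_apply]
    exact polar_comm (⇑Q) x y
  obtain ⟨c, hc, φ, hφ⟩ := exists_scaled_isometry h2 (altForm n) B₂ (polarBilin Q) h₁.symm h₂.symm hs
    h₁.nondeg h₂.nondeg hQ.1 (by rw [Module.finrank_fin_fun]; exact heo) (by
      rw [Module.finrank_fin_fun, hV, Module.finrank_fintype_fun_eq_card, ← hsum, Multiset.sum_add,
        Multiset.sum_singleton])
  have h := isModel_prod (isModel_smul h₁ hc) h₂
  set N₀ : Module.End F ((Fin (n + 1) → F) × V) := LinearMap.prodMap (shift n) N₂ with hN₀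
  set N : Module.End F (ι → F) := φ.conj N₀ with hN
  have hNt : HasType N ({n + 1} + μ') := hasType_conj φ h.type
  have hNs : ∀ u v, polarBilin Q (N u) v = - polarBilin Q u (N v) := by
    intro u v
    have e1 : N u = φ (N₀ (φ.symm u)) := rfl
    have e2 : N v = φ (N₀ (φ.symm v)) := rfl
    obtain ⟨u, rfl⟩ := φ.surjective u
    obtain ⟨v, rfl⟩ := φ.surjective v
    rw [e1, e2, hφ, hφ, LinearEquiv.symm_apply_apply, LinearEquiv.symm_apply_apply]
    exact h.skew _ _
  have hNp : N ^ p = 0 := by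
    have h1 := hNt p
    have h3 : (Multiset.map (fun e => e - p) ({n + 1} + μ')).sum = 0 := by
      rw [Multiset.sum_eq_zero_iff]
      intro y hy
      obtain ⟨e, he, rfl⟩ := Multiset.mem_map.mp hy
      have := (hle e he).2
      omega
    rw [h3, Submodule.finrank_eq_zero] at h1
    exact LinearMap.range_eq_bot.mp h1
  obtain ⟨T, hTp, hTB, hTW, hT1⟩ := cayley h2 p hodd (polarBilin Q) N hNs hNp
  set x : GL ι F := (Matrix.GeneralLinearGroup.toLin (n := ι) (R := F)).symm T with hx
  have hxT : Matrix.toLin' (x : Matrix ι ι F) = (T : Module.End F (ι → F)) := toLin'_symm T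
  have hxp : x ^ p = 1 := by rw [hx, ← map_pow, hTp, map_one]
  refine ⟨x, N, ?_, hxp, ?_, hNt, hNs, ?_⟩
  · refine mem_omegaGL_of_pow h2 Q hQ x ?_ p hodd hxp
    intro v
    have h1 := hTB v v
    rw [← hxT] at h1
    simp only [Matrix.toLin'_apply, polarBilin_apply_apply, polar_self] at h1
    have h3 : (2 : F) * Q ((x : Matrix ι ι F).mulVec v) = 2 * Q v := by simpa using h1
    exact mul_left_cancel₀ h2 h3
  · intro h1
    apply hT1
    rw [← hxT, h1]
    simp
    rfl
  · intro W hW
    rw [hxT] at hW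
    exact hTW W hW

end Unipotent

end Cfsg.Agent.H959
end

-- part: H959/JordanApp
section
/-!
# Partitions and fixed nondegenerate subspaces
-/

set_option autoImplicit false

namespace Cfsg.Agent.H959

open Module QuadraticMap

universe u

section Comb

theorem sum_mod_two_odd (O : Multiset ℕ) (h : ∀ e ∈ O, Odd e) : O.sum % 2 = O.card % 2 := by
  induction O using Multiset.induction_on with
  | empty => simp
  | cons a O ih =>
    have h1 := h a (Multiset.mem_cons_self a O)
    have h2 := ih fun e he => h e (Multiset.mem_cons_of_mem he)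
    rw [Multiset.sum_cons, Multiset.card_cons]
    rw [Nat.odd_iff] at h1
    omega

theorem sum_mod_two_even (E : Multiset ℕ) (h : ∀ e ∈ E, Even e) : E.sum % 2 = 0 := by
  induction E using Multiset.induction_on with
  | empty => simp
  | cons a E ih =>
    have h1 := h a (Multiset.mem_cons_self a E)
    have h2 := ih fun e he => h e (Multiset.mem_cons_of_mem he)
    rw [Multiset.sum_cons]
    rw [Nat.even_iff] at h1
    omega

/-- Splitting a sub-multiset of `E₀ + O₀` (even and odd elements) of even sum. -/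
theorem split_sub {E₀ O₀ ν : Multiset ℕ} (hE₀ : ∀ e ∈ E₀, Even e) (hO₀ : ∀ e ∈ O₀, Odd e) (hν : ν ≤ E₀ + O₀)
    (hev : ν.sum % 2 = 0) :
    ∃ E O : Multiset ℕ, ν = E + O ∧ E ≤ E₀ ∧ O ≤ O₀ ∧ O.card % 2 = 0 ∧ ∀ e : ℕ, Even e → ν.count e = E.count e := by
  refine ⟨ν.filter Even, ν.filter (fun e => ¬ Even e), (Multiset.filter_add_not _ _).symm, ?_, ?_, ?_, ?_⟩
  · calc ν.filter Even ≤ (E₀ + O₀).filter Even := Multiset.filter_le_filter _ hν
      _ = E₀ := by
        rw [Multiset.filter_add, Multiset.filter_eq_self.mpr hE₀,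
          Multiset.filter_eq_nil.mpr (fun e he => Nat.not_even_iff_odd.mpr (hO₀ e he)), add_zero]
  · calc ν.filter (fun e => ¬ Even e) ≤ (E₀ + O₀).filter (fun e => ¬ Even e) := Multiset.filter_le_filter _ hν
      _ = O₀ := by
        rw [Multiset.filter_add, Multiset.filter_eq_nil.mpr (fun e he => not_not.mpr (hE₀ e he)),
          Multiset.filter_eq_self.mpr (fun e he => Nat.not_even_iff_odd.mpr (hO₀ e he)), zero_add]
  · have h1 := congrArg Multiset.sum (Multiset.filter_add_not Even ν)
    rw [Multiset.sum_add] at h1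
    have h2 := sum_mod_two_even (ν.filter Even) (fun e he => (Multiset.mem_filter.mp he).2)
    have h3 := sum_mod_two_odd (ν.filter (fun e => ¬ Even e))
      (fun e he => Nat.not_even_iff_odd.mp (Multiset.mem_filter.mp he).2)
    omega
  · intro e he
    rw [Multiset.count_filter, if_pos he]

/-- A sub-multiset of `2^k + O₀`. -/
theorem split_two {k : ℕ} {O₀ ν : Multiset ℕ} (hO₀ : ∀ e ∈ O₀, Odd e) (hν : ν ≤ Multiset.replicate k 2 + O₀)
    (hev : ν.sum % 2 = 0) (hc : Even (ν.count 2)) :
    ∃ (j : ℕ) (O : Multiset ℕ), Even j ∧ ν = Multiset.replicate j 2 + O ∧ O ≤ O₀ ∧ O.card % 2 = 0 := by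
  obtain ⟨E, O, rfl, hE, hO, hcard, hcount⟩ := split_sub (E₀ := Multiset.replicate k 2) (O₀ := O₀)
    (fun e he => by rw [Multiset.eq_of_mem_replicate he]; exact even_two) hO₀ hν hev
  have hEr : E = Multiset.replicate E.card 2 := Multiset.eq_replicate_card.mpr
    fun e he => Multiset.eq_of_mem_replicate (Multiset.mem_of_le hE he)
  refine ⟨E.card, O, ?_, by rw [← hEr], hO, hcard⟩
  rw [hcount 2 even_two, hEr, Multiset.count_replicate_self] at hc
  exact hc

theorem even_count_two {k : ℕ} {O : Multiset ℕ} (hk : Even k) (hO : ∀ e ∈ O, Odd e) (e : ℕ) (he : Even e) :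
    Even ((Multiset.replicate k 2 + O).count e) := by
  have h1 : O.count e = 0 := Multiset.count_eq_zero_of_notMem fun h => by
    exact Nat.not_odd_iff_even.mpr he (hO e h)
  rw [Multiset.count_add, h1, add_zero, Multiset.count_replicate]
  split_ifs
  · exact hk
  · exact Even.zero

end Comb

section App

open scoped MatrixGroups

variable {ι : Type} [Fintype ι] [DecidableEq ι] {F : Type u} [Field F] [Finite F]

omit [Fintype ι] [DecidableEq ι] [Finite F] in
theorem nondeg_of_on {Q : QuadraticForm F (ι → F)} {W : Submodule F (ι → F)}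
    (h : Cfsg.Geo.IsNondegenerateOn (polar (⇑Q)) W) :
    ∀ w ∈ W, (∀ u ∈ W, polarBilin Q w u = 0) → w = 0 := by
  intro w hw hall
  by_contra h0
  obtain ⟨-, x, hx, hne⟩ := h w hw h0
  exact hne (hall x hx)

/-- The case of partitions with an odd part. -/
theorem partition_of_fixed (h2 : (2 : F) ≠ 0) (p : ℕ) [hp : Fact p.Prime] [CharP F p] (hodd : Odd p)
    (Q : QuadraticForm F (ι → F)) (hQ : (polarBilin Q).Nondegenerate) (m : ℕ) (hm : m ≤ Fintype.card ι)
    (H : ∀ x : GL ι F, x ∈ Cfsg.Geo.omegaGL (⇑Q) → x ^ p = 1 → x ≠ 1 →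
      ∃ W : Submodule F (ι → F), finrank F W = m ∧ Cfsg.Geo.IsNondegenerateOn (polar (⇑Q)) W ∧
        W.map (Matrix.toLin' (x : Matrix ι ι F)) ≤ W)
    (μ : Multiset ℕ) (hle : ∀ e ∈ μ, 0 < e ∧ e ≤ p) (heven : ∀ e : ℕ, Even e → Even (μ.count e))
    (hoddpart : ∃ e ∈ μ, Odd e) (hsum : μ.sum = Fintype.card ι) :
    ∃ ν : Multiset ℕ, ν ≤ μ ∧ ν.sum = m ∧ ∀ e : ℕ, Even e → Even (ν.count e) := by
  obtain ⟨x, N, hxO, hxp, hx1, hNt, hNs, hNW⟩ := exists_unipotent h2 p hodd Q hQ μ hle heven hoddpart hsum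
  by_cases h : x = 1
  · -- all parts are one
    have hN0 := hx1 h
    have h1 := hNt 1
    rw [hN0, pow_one, LinearMap.range_zero, finrank_bot] at h1
    have hall : ∀ e ∈ μ, e = 1 := by
      intro e he
      have h3 := (Multiset.sum_eq_zero_iff.mp h1.symm) _ (Multiset.mem_map_of_mem (fun e => e - 1) he)
      have := (hle e he).1
      omega
    have hrep : μ = Multiset.replicate μ.card 1 := Multiset.eq_replicate_card.mpr hall
    have hcard : μ.card = Fintype.card ι := by
      rw [← hsum]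
      conv_rhs => rw [hrep]
      simp
    refine ⟨Multiset.replicate m 1, ?_, by simp, ?_⟩
    · rw [hrep, Multiset.replicate_le_replicate, hcard]
      exact hm
    · intro e he
      rw [Multiset.count_replicate, if_neg]
      · exact Even.zero
      · rintro rfl
        exact absurd he (by decide)
  · obtain ⟨W, hWm, hWn, hWx⟩ := H x hxO hxp h
    obtain ⟨ν, h1, h3, h4, -⟩ := exists_sub h2 (polarBilin Q)
      (fun x y => by simp only [polarBilin_apply_apply]; exact polar_comm (⇑Q) x y) N hNs μ hNt W (hNW W hWx)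
      (nondeg_of_on hWn)
    exact ⟨ν, h1, by rw [h3, hWm], h4⟩

/-- Every partition, for `m` even. -/
theorem partition_of_fixed' (h2 : (2 : F) ≠ 0) (p : ℕ) [hp : Fact p.Prime] [CharP F p] (hodd : Odd p)
    (Q : QuadraticForm F (ι → F)) (hQ : (polarBilin Q).Nondegenerate) (m : ℕ) (hm : m ≤ Fintype.card ι)
    (hme : Even m) (hpos : 0 < Fintype.card ι)
    (H : ∀ x : GL ι F, x ∈ Cfsg.Geo.omegaGL (⇑Q) → x ^ p = 1 → x ≠ 1 →
      ∃ W : Submodule F (ι → F), finrank F W = m ∧ Cfsg.Geo.IsNondegenerateOn (polar (⇑Q)) W ∧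
        W.map (Matrix.toLin' (x : Matrix ι ι F)) ≤ W)
    (μ : Multiset ℕ) (hle : ∀ e ∈ μ, 0 < e ∧ e ≤ p) (heven : ∀ e : ℕ, Even e → Even (μ.count e))
    (hsum : μ.sum = Fintype.card ι) :
    ∃ ν : Multiset ℕ, ν ≤ μ ∧ ν.sum = m ∧ ∀ e : ℕ, Even e → Even (ν.count e) := by
  by_cases hoddpart : ∃ e ∈ μ, Odd e
  · exact partition_of_fixed h2 p hodd Q hQ m hm H μ hle heven hoddpart hsum
  push Not at hoddpart
  have hall : ∀ e ∈ μ, Even e := fun e he => Nat.not_odd_iff_even.mp (hoddpart e he)
  rcases Multiset.empty_or_exists_mem μ with rfl | ⟨e, he⟩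
  · simp at hsum; omega
  obtain ⟨a, ha⟩ := (hall e he)
  have hcount : 2 ≤ μ.count e := by
    have h1 := heven _ (hall e he)
    have h3 := Multiset.count_pos.mpr he
    rw [Nat.even_iff] at h1
    omega
  have hle2 : ({e} + {e} : Multiset ℕ) ≤ μ := by
    have : ({e} + {e} : Multiset ℕ) = Multiset.replicate 2 e := rfl
    rw [this, ← Multiset.le_count_iff_replicate_le]
    exact hcount
  obtain ⟨μ', rfl⟩ := Multiset.le_iff_exists_add.mp hle2
  have he0 := (hle e he).1
  have hep := (hle e he).2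
  have hep' : e + 1 ≤ p := by
    obtain ⟨k, hk⟩ := hodd
    omega
  have hμ'even : ∀ e ∈ μ', Even e := fun e he => hall e (Multiset.mem_add.mpr (Or.inr he))
  obtain ⟨ν₁, h1, h3, h4⟩ := partition_of_fixed h2 p hodd Q hQ m hm H (μ' + ({e + 1} + {e - 1}))
    (by
      intro f hf
      rw [Multiset.mem_add, Multiset.mem_add, Multiset.mem_singleton, Multiset.mem_singleton] at hf
      rcases hf with hf | rfl | rfl
      · exact hle f (Multiset.mem_add.mpr (Or.inr hf))
      · omega
      · omega)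
    (by
      intro f hf
      have h5 := heven f hf
      rw [Multiset.count_add, Multiset.count_add, Multiset.count_singleton, Nat.even_iff] at h5
      rw [Multiset.count_add, Multiset.count_add, Multiset.count_singleton, Multiset.count_singleton,
        if_neg (by rintro rfl; rw [Nat.even_iff] at hf; omega),
        if_neg (by rintro rfl; rw [Nat.even_iff] at hf; omega), Nat.even_iff]
      split_ifs at h5 <;> omega)
    ⟨e + 1, by simp, by rw [Nat.odd_iff]; omega⟩
    (by
      rw [Multiset.sum_add, Multiset.sum_add, Multiset.sum_singleton] at hsum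
      rw [Multiset.sum_add, Multiset.sum_add, Multiset.sum_singleton, Multiset.sum_singleton]
      omega)
  obtain ⟨E, O, rfl, hE, hO, hcard, hcnt⟩ := split_sub (E₀ := μ') (O₀ := {e + 1} + {e - 1}) hμ'even (by
    intro f hf
    rw [Multiset.mem_add, Multiset.mem_singleton, Multiset.mem_singleton] at hf
    rcases hf with rfl | rfl <;> rw [Nat.odd_iff] <;> omega) h1 (by rw [h3]; exact Nat.even_iff.mp hme)
  have hOc : O.card ≤ 2 := by
    have := Multiset.card_le_card hO
    simpa using this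
  have hO' : O = 0 ∨ O = {e + 1} + {e - 1} := by
    rcases (show O.card = 0 ∨ O.card = 2 by omega) with h | h
    · exact Or.inl (Multiset.card_eq_zero.mp h)
    · right
      apply Multiset.eq_of_le_of_card_le hO
      rw [h]; rfl
  rcases hO' with rfl | rfl
  · refine ⟨E, hE.trans (Multiset.le_add_left _ _), by simpa using h3, fun f hf => ?_⟩
    rw [← hcnt f hf]
    exact h4 f hf
  · refine ⟨({e} + {e}) + E, add_le_add_right hE _, ?_, ?_⟩
    · rw [Multiset.sum_add, Multiset.sum_add, Multiset.sum_singleton, Multiset.sum_singleton] at h3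
      rw [Multiset.sum_add, Multiset.sum_add, Multiset.sum_singleton]
      omega
    · intro f hf
      have h5 := h4 f hf
      rw [hcnt f hf] at h5
      rw [Multiset.count_add, Multiset.count_add, Multiset.count_singleton]
      rw [Nat.even_iff] at h5 ⊢
      split_ifs <;> omega

omit [Finite F] [Fintype ι] [DecidableEq ι] in
theorem nondeg_of_rad (h2 : (2 : F) ≠ 0) (Q : QuadraticForm F (ι → F))
    (h : ∀ u, Q u = 0 → (∀ v, polar (⇑Q) u v = 0) → u = 0) : (polarBilin Q).Nondegenerate := by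
  have key : ∀ u, (∀ v, polar (⇑Q) u v = 0) → u = 0 := by
    intro u hu
    refine h u ?_ hu
    have h1 := hu u
    rw [polar_self] at h1
    have h3 : (2 : F) * Q u = 0 := by simpa using h1
    exact (mul_eq_zero.mp h3).resolve_left h2
  refine ⟨fun u hu => key u fun v => hu v, fun u hu => key u fun v => ?_⟩
  rw [polar_comm]
  exact hu v

omit [Finite F] in
/-- A scalar matrix of order dividing `p` in characteristic `p` is the identity. -/
theorem eq_one_of_scalar [Nonempty ι] (p : ℕ) [hp : Fact p.Prime] [CharP F p] (x : GL ι F) (hxp : x ^ p = 1) (z : F)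
    (hz : (x : Matrix ι ι F) = z • (1 : Matrix ι ι F)) : x = 1 := by
  obtain ⟨i⟩ := (inferInstance : Nonempty ι)
  have h1 : ((x ^ p : GL ι F) : Matrix ι ι F) = 1 := by rw [hxp]; rfl
  rw [Units.val_pow_eq_pow_val, hz, smul_pow, one_pow] at h1
  have h3 := congrFun (congrFun h1 i) i
  simp only [Matrix.smul_apply, Matrix.one_apply_eq, smul_eq_mul, mul_one] at h3
  have h4 : (z - 1) ^ p = 0 := by rw [sub_pow_char, h3, one_pow, sub_self]
  have h5 : z = 1 := sub_eq_zero.mp (pow_eq_zero_iff hp.out.ne_zero |>.mp h4)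
  apply Units.ext
  rw [hz, h5, one_smul]
  rfl

end App

end Cfsg.Agent.H959
end
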