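import Mathlib
import Cfsg.Prelude.Def_GeometricClasses
import Cfsg.Agent.H959.OddInv
import Cfsg.Agent.H957.Bridge
import Cfsg.Agent.H959.JordanApp
set_option linter.all false

/-!
# Bridge between the matrix formulation and quadratic spaces
-/

set_option autoImplicit false

namespace Cfsg.Agent.H959

open Module QuadraticMap Cfsg.Agent.LieClassical.OrthCore Cfsg.Agent.LieClassical.OrthTrans
  Cfsg.Agent.H955 Cfsg.Agent.H958
open scoped MatrixGroups

variable {ι : Type} [Fintype ι] [DecidableEq ι] {F : Type*} [Field F]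

omit [Fintype ι] [DecidableEq ι] in
theorem nondegOn_iff {Q : QuadraticForm F (ι → F)} {W : Submodule F (ι → F)} :
    Cfsg.Geo.IsNondegenerateOn (polar (⇑Q)) W ↔ Nondeg (res Q W) := by
  rw [nondeg_res_iff]
  constructor
  · intro h x hx hxy
    by_contra hx0
    obtain ⟨-, y, hy, h1⟩ := h x hx hx0
    exact h1 (hxy y hy)
  · intro h w hw hw0
    have h1 : ∃ x ∈ W, polar (⇑Q) w x ≠ 0 := by
      by_contra hcon
      push Not at hcon
      exact hw0 (h w hw hcon)
    obtain ⟨x, hx, hx'⟩ := h1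
    exact ⟨⟨x, hx, by rwa [polar_comm]⟩, x, hx, hx'⟩

omit [Fintype ι] [DecidableEq ι] in
theorem plusOn_iff {Q : QuadraticForm F (ι → F)} {W : Submodule F (ι → F)} :
    Cfsg.Geo.IsPlusTypeOn (⇑Q) W ↔ IsPlus (res Q W) := by
  constructor
  · rintro ⟨U, hU, hU0, hd⟩
    refine ⟨U.comap W.subtype, fun u hu => hU0 _ hu, ?_⟩
    rw [← hd, LinearEquiv.finrank_eq (Submodule.comapSubtypeEquivOfLe hU)]
  · rintro ⟨U, hU, hd⟩
    refine ⟨U.map W.subtype, Submodule.map_subtype_le _ _, ?_, ?_⟩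
    · rintro _ ⟨u, hu, rfl⟩
      exact hU u hu
    · rw [← hd, ← LinearEquiv.finrank_eq (Submodule.equivSubtypeMap W U)]

theorem map_le_iff {x : GL ι F} {W : Submodule F (ι → F)} :
    W.map (Matrix.toLin' (x : Matrix ι ι F)) ≤ W ↔ ∀ w ∈ W, H957.eOf x w ∈ W := by
  constructor
  · intro h w hw
    exact h ⟨w, hw, rfl⟩
  · rintro h _ ⟨w, hw, rfl⟩
    exact h w hw

theorem eOf_mul (x y : GL ι F) : H957.eOf (x * y) = H957.eOf x * H957.eOf y := by
  apply LinearEquiv.ext
  intro v
  change ((x * y : GL ι F) : Matrix ι ι F).mulVec v = (x : Matrix ι ι F).mulVec ((y : Matrix ι ι F).mulVec v)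
  rw [Matrix.mulVec_mulVec, Units.val_mul]

theorem eOf_one : H957.eOf (1 : GL ι F) = 1 := by
  apply LinearEquiv.ext
  intro v
  change ((1 : GL ι F) : Matrix ι ι F).mulVec v = v
  rw [Units.val_one, Matrix.one_mulVec]

theorem eOf_pow (x : GL ι F) (n : ℕ) : H957.eOf (x ^ n) = H957.eOf x ^ n := by
  induction n with
  | zero => rw [pow_zero, pow_zero, eOf_one]
  | succ n ih => rw [pow_succ, pow_succ, eOf_mul, ih]

theorem eOf_injective : Function.Injective (H957.eOf : GL ι F → _) := fun x y h => by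
  rw [← H957.glOf_eOf x, h, H957.glOf_eOf]

/-- determinants of elements of `Ω` -/
theorem det_of_mem_omegaGL {Q : (ι → F) → F} {x : GL ι F} (hx : x ∈ Cfsg.Geo.omegaGL Q) :
    (x : Matrix ι ι F).det = 1 := by
  obtain ⟨g, hg, rfl⟩ := hx
  have h := Abelianization.commutator_subset_ker
    ((Matrix.GeneralLinearGroup.det (n := ι) (R := F)).comp (Cfsg.isometryGroup F Q).subtype) hg
  rw [MonoidHom.mem_ker] at h
  have := congrArg (fun u : Fˣ => (u : F)) h
  simpa using this

/-- For elements of odd prime order the statement about `Ω` is the statement about the isometry group. -/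
theorem omega_iff_O (h2 : (2 : F) ≠ 0) {Q : QuadraticForm F (ι → F)} (hQ : (polarBilin Q).Nondegenerate)
    {r : ℕ} [hr : Fact r.Prime] (hr2 : 2 < r) {P : Submodule F (ι → F) → Prop} :
    (∀ x : GL ι F, x ∈ Cfsg.Geo.omegaGL (⇑Q) → orderOf x = r →
      ∃ W : Submodule F (ι → F), P W ∧ W.map (Matrix.toLin' (x : Matrix ι ι F)) ≤ W) ↔
    ∀ T ∈ O Q, T ^ r = 1 → T ≠ 1 → ∃ W : Submodule F (ι → F), P W ∧ ∀ w ∈ W, T w ∈ W := by
  have hrodd : Odd r := hr.out.odd_of_ne_two (by omega)
  constructor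
  · intro h T hT hTr hT1
    have h1 : H957.glOf T ^ r = 1 := by rw [← H957.glOf_pow, hTr, H957.glOf_one]
    have h3 : H957.glOf T ≠ 1 := by
      intro h4
      apply hT1
      rw [← H957.eOf_glOf T, h4, eOf_one]
    have hmem : H957.glOf T ∈ Cfsg.Geo.omegaGL (⇑Q) :=
      mem_omegaGL_of_pow h2 Q hQ _ (fun v => by rw [H957.glOf_mulVec]; exact hT v) r hrodd h1
    obtain ⟨W, hW, hWT⟩ := h _ hmem (orderOf_eq_prime h1 h3)
    refine ⟨W, hW, fun w hw => ?_⟩
    have := map_le_iff.1 hWT w hw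
    rwa [H957.eOf_glOf] at this
  · intro h x hx hxr
    have h1 : x ^ r = 1 := by rw [← hxr]; exact pow_orderOf_eq_one x
    obtain ⟨W, hW, hWT⟩ := h (H957.eOf x) (fun v => H957.isometry_of_omegaGL hx v)
      (by rw [← eOf_pow, h1, eOf_one])
      (by
        intro h3
        have : x = 1 := eOf_injective (by rw [h3, eOf_one])
        rw [this, orderOf_one] at hxr
        omega)
    exact ⟨W, hW, map_le_iff.2 hWT⟩

end Cfsg.Agent.H959
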