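import Mathlib
import Cfsg.Agent.H958.Crit_mg
set_option linter.all false

/-!
# Isometries of prime order of odd-dimensional quadratic spaces and elliptic subspaces
-/

set_option autoImplicit false

namespace Cfsg.Agent.H959

open Module QuadraticMap Cfsg.Agent.LieClassical.OrthCore Cfsg.Agent.LieClassical.OrthTrans
  Cfsg.Agent.H955 Cfsg.Agent.H958

universe u v
variable {F : Type u} [Field F] [Finite F] {V : Type v} [AddCommGroup V] [Module F V] [FiniteDimensional F V]
  {Q : QuadraticForm F V}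

/-- The numerical criterion in any dimension, odd characteristic. -/
theorem fits_iff_FN {r : ℕ} [Fact r.Prime] (hr : (r : F) ≠ 0) (h2 : (2 : F) ≠ 0) {X : Submodule F V}
    (hX : Nondeg (res Q X)) {j : ℕ} :
    Fits Q r X j ↔ FN (bk F r) (finrank F X) (IsPlus (res Q X) ↔ dl F r (finrank F X / bk F r)) j := by
  have hc := bk_pos (F := F) (r := r) hr
  constructor
  · intro h
    have hle := h.le
    obtain ⟨B, hBX, hBn, hBd, hBp⟩ := h
    rcases Nat.lt_or_eq_of_le hle with h1 | h1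
    · exact Or.inr (Or.inl h1)
    · refine Or.inr (Or.inr ⟨h1, ?_⟩)
      have hB : B = X := Submodule.eq_of_le_of_finrank_eq hBX (by rw [hBd, h1])
      subst hB
      rw [hBd, Nat.mul_div_cancel_left _ hc]
      exact hBp
  · rintro (rfl | h | ⟨h, hA⟩)
    · exact fits_zero r X
    · rcases Nat.eq_zero_or_pos j with rfl | hpos
      · exact fits_zero r X
      obtain ⟨k, hk⟩ := bk_even F r
      have hck : bk F r * j = 2 * (k * j) := by rw [hk]; ring
      obtain ⟨Y, _, _, _, R, hR, hRd, hRp⟩ := exists_model (F := F) (k * j)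
        (Nat.mul_pos (by omega) hpos) (dl F r j)
      obtain ⟨f, hf, hfQ⟩ := exists_embedding_odd h2 _ hR hRd hX (by rw [← hck]; exact h)
      obtain ⟨h1, h3, h4⟩ := range_props (Q := res Q X) hR hf hfQ
      obtain ⟨e, he⟩ := exists_res_equiv (Q := Q) X (LinearMap.range f)
      refine ⟨(LinearMap.range f).map X.subtype, (Submodule.map_subtype_le _ _), nondeg_of_equiv e he h1,
        ?_, ?_⟩
      · rw [← e.finrank_eq, h3, hRd, hck]
      · rw [← isPlus_iff_of_equiv e he, h4, hRp]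
    · refine ⟨X, le_rfl, hX, h.symm, ?_⟩
      rw [← h, Nat.mul_div_cancel_left _ hc] at hA
      exact hA

/-- the elliptic `m`-spaces form one orbit -/
theorem exists_orbit (hQ : Nondeg Q) {m : ℕ} (hme : Even m) {W : Submodule F V} (hW : Nondeg (res Q W))
    (hWd : finrank F W = m) (hWp : ¬ IsPlus (res Q W)) (W' : Submodule F V) :
    (∃ g ∈ O Q, W.map (g : V →ₗ[F] V) = W') ↔ (finrank F W' = m ∧ Nondeg (res Q W') ∧ ¬ IsPlus (res Q W')) := by
  constructor
  · rintro ⟨g, hg, rfl⟩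
    exact ⟨by rw [finrank_map', hWd], nondeg_map hg hW, by rw [isPlus_map hg]; exact hWp⟩
  · rintro ⟨h1, h2, h3⟩
    obtain ⟨e, he⟩ := exists_equiv_of_isPlus_iff (Q := res Q W) (Q' := res Q W') hW h2 (by rw [hWd]; exact hme)
      (by rw [hWd, h1]) (iff_of_false hWp h3)
    exact exists_conj hQ e he

theorem exists_elliptic (hQ : Nondeg Q) (h2 : (2 : F) ≠ 0) {m : ℕ} (hme : Even m) (hm : 0 < m)
    (hmn : m < finrank F V) (δ : Prop) :
    ∃ W : Submodule F V, finrank F W = m ∧ Nondeg (res Q W) ∧ (IsPlus (res Q W) ↔ δ) := by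
  obtain ⟨k, hk⟩ := hme
  obtain ⟨Y, _, _, _, R, hR, hRd, hRp⟩ := exists_model (F := F) k (by omega) δ
  obtain ⟨f, hf, hfQ⟩ := exists_embedding_odd h2 _ hR hRd hQ (by omega)
  obtain ⟨h1, h3, h4⟩ := range_props (Q := Q) hR hf hfQ
  exact ⟨LinearMap.range f, by omega, h1, h4.trans hRp⟩

/-- Elements of odd prime order `r ≠ p` and elliptic subspaces. -/
theorem odd_main {r : ℕ} [Fact r.Prime] (hr2 : 2 < r) (hr : (r : F) ≠ 0) (h2 : (2 : F) ≠ 0) (hQ : Nondeg Q)
    (hodd : Odd (finrank F V)) {m : ℕ} (hme : Even m) (hm : 0 < m) (hmn : m < finrank F V)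
    (hdvd : r ∣ Nat.card {W : Submodule F V // finrank F W = m ∧ Nondeg (res Q W) ∧ ¬ IsPlus (res Q W)}) :
    (∀ T ∈ O Q, T ^ r = 1 → T ≠ 1 → ∃ W : Submodule F V, (finrank F W = m ∧ Nondeg (res Q W) ∧
      ¬ IsPlus (res Q W)) ∧ ∀ w ∈ W, T w ∈ W) ↔
    ((bk F r ≤ m ∧ 0 < m % bk F r ∧ m % bk F r < finrank F V % bk F r) ∨
      (m % bk F r = 0 ∧ ¬ dl F r (m / bk F r))) := by
  have hc := bk_pos (F := F) (r := r) hr
  obtain ⟨W, hWd, hW, hWp'⟩ := exists_elliptic (m := m) hQ h2 hme hm hmn False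
  have hWp : ¬ IsPlus (res Q W) := fun h => hWp'.1 h
  have horb := exists_orbit hQ hme hW hWd hWp
  have hpn := nondeg_perp hQ hW
  have hpd := finrank_add_perp hQ W
  have hmodd : ∀ j, bk F r * j ≠ finrank F V := by
    intro j hj
    rw [← hj] at hodd
    exact (Nat.not_even_iff_odd.2 hodd) ((bk_even F r).mul_right _)
  have hmodd' : ∀ j, bk F r * j ≠ finrank F V - m := by
    intro j hj
    have h5 := (bk_even F r).mul_right j
    rw [hj] at h5
    rw [Nat.even_iff] at h5 hme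
    rw [Nat.odd_iff] at hodd
    omega
  have hnc : 0 < finrank F V % bk F r := by
    rcases Nat.eq_zero_or_pos (finrank F V % bk F r) with h | h
    · exact absurd (Nat.mul_div_cancel' (Nat.dvd_of_mod_eq_zero h)) (hmodd _)
    · exact h
  have hFV : ∀ s, Fits Q r (⊤ : Submodule F V) s ↔ FN (bk F r) (finrank F V) False s := by
    intro s
    rw [fits_iff_odd hr h2 (nondeg_of_equiv (LinearEquiv.ofTop ⊤ rfl).symm (fun _ => rfl) hQ)
      (by rw [finrank_top]; exact hodd), finrank_top]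
    constructor
    · intro h; exact Or.inr (Or.inl h)
    · rintro (rfl | h | ⟨-, h⟩)
      · rw [mul_zero]; omega
      · exact h
      · exact h.elim
  have hFP : ∀ s, Fits Q r (perp Q W) s ↔ FN (bk F r) (finrank F V - m) False s := by
    intro s
    have hfr : finrank F (perp Q W) = finrank F V - m := by omega
    rw [fits_iff_odd hr h2 hpn (by
      rw [hfr, Nat.odd_iff]
      rw [Nat.even_iff] at hme
      rw [Nat.odd_iff] at hodd
      omega), hfr]
    constructor
    · intro h; exact Or.inr (Or.inl h)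
    · rintro (rfl | h | ⟨-, h⟩)
      · rw [mul_zero]; omega
      · exact h
      · exact h.elim
  have hFW : ∀ s, Fits Q r W s ↔ FN (bk F r) m (¬ dl F r (m / bk F r)) s := by
    intro s
    rw [fits_iff_FN hr h2 hW, hWd]
    have : (IsPlus (res Q W) ↔ dl F r (m / bk F r)) ↔ ¬ dl F r (m / bk F r) := by tauto
    rw [this]
  obtain ⟨S, hS, hS', hcrit⟩ := exists_max (c := bk F r) (n := finrank F V) (m := m) hc hm hmn
    (AV := False) (AW := ¬ dl F r (m / bk F r)) (AP := False) (fun h => absurd h (by omega))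
  have hlhs : (∀ T ∈ O Q, T ^ r = 1 → T ≠ 1 → ∃ W : Submodule F V, (finrank F W = m ∧ Nondeg (res Q W) ∧
      ¬ IsPlus (res Q W)) ∧ ∀ w ∈ W, T w ∈ W) ↔
      ∀ T ∈ O Q, T ^ r = 1 → T ≠ 1 →
        ∃ g ∈ O Q, ∀ v ∈ W.map (g : V →ₗ[F] V), T v ∈ W.map (g : V →ₗ[F] V) := by
    constructor
    · intro h T hT hTr hT1
      obtain ⟨W', hW', hW'T⟩ := h T hT hTr hT1
      obtain ⟨g, hg, rfl⟩ := (horb W').2 hW'
      exact ⟨g, hg, hW'T⟩
    · intro h T hT hTr hT1
      obtain ⟨g, hg, hgT⟩ := h T hT hTr hT1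
      exact ⟨W.map (g : V →ₗ[F] V), (horb _).1 ⟨g, hg, rfl⟩, hgT⟩
  have hnf := not_fits_of_dvd hr2 hr hQ (W := W) (S := S) (fun s hs => hS' s ((hFV s).1 hs)) (by
    have : Nat.card {W' : Submodule F V // ∃ g ∈ O Q, W.map (g : V →ₗ[F] V) = W'} =
        Nat.card {W : Submodule F V // finrank F W = m ∧ Nondeg (res Q W) ∧ ¬ IsPlus (res Q W)} :=
      Nat.card_congr (Equiv.subtypeEquivRight horb)
    rwa [this])
  rw [hlhs, elusive_iff hr2 hr hQ hW ((hFV S).2 hS) (fun s hs => hS' s ((hFV s).1 hs))]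
  have h5 : (∃ j ≤ S, Fits Q r W j ∧ Fits Q r (perp Q W) (S - j)) ↔
      Crit (bk F r) (finrank F V) m False (¬ dl F r (m / bk F r)) False := by
    rw [← hcrit]
    refine exists_congr fun j => and_congr_right fun _ => ?_
    rw [hFW, hFP]
  rw [h5]
  unfold Crit
  constructor
  · rintro (⟨h, -⟩ | ⟨h, -⟩ | ⟨-, h, h'⟩ | ⟨h, h'⟩ | ⟨-, -, h⟩)
    · omega
    · omega
    · exact Or.inr ⟨h, h'⟩
    · refine Or.inl ⟨?_, h, h'⟩
      by_contra hlt
      push Not at hlt
      rw [Nat.mod_eq_of_lt hlt] at h'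
      apply hnf.1
      rw [hFP]
      right; left
      -- `c * S < n`, `c * S ≤ n - n % c`
      have h7 : bk F r * S ≤ finrank F V := by
        rcases hS with rfl | h7 | ⟨-, h7⟩
        · rw [mul_zero]; omega
        · exact h7.le
        · exact h7.elim
      have h8 : S ≤ finrank F V / bk F r := (Nat.le_div_iff_mul_le hc).2 (by rw [mul_comm]; exact h7)
      have h9 := Nat.mul_le_mul_left (bk F r) h8
      have h10 := Nat.div_add_mod (finrank F V) (bk F r)
      omega
    · exact h.elim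
  · rintro (⟨-, h, h'⟩ | ⟨h, h'⟩)
    · exact Or.inr (Or.inr (Or.inr (Or.inl ⟨h, h'⟩)))
    · exact Or.inr (Or.inr (Or.inl ⟨hnc, h, h'⟩))

end Cfsg.Agent.H959
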